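import Mathlib
import Cfsg.Agent.Proj.Baer

/-! Planes of odd order with many involutory homologies have prime power order. -/

set_option autoImplicit false
set_option linter.unusedSectionVars false

namespace Cfsg.Agent.Proj
open Configuration ProjectivePlane MulAction

section Grp
variable {G X : Type*} [Group G] [MulAction G X]

/-- The orbit of `z` under a subgroup. -/
def orb (A : Subgroup G) (z : X) : Set X := {w | ∃ g ∈ A, g • z = w}

theorem orb_eq (A : Subgroup G) (z : X) : orb A z = orbit A z := by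
  ext w
  exact ⟨fun ⟨g, hg, e⟩ => ⟨⟨g, hg⟩, e⟩, fun ⟨g, e⟩ => ⟨g, g.2, e⟩⟩

theorem ncard_orb (A : Subgroup G) (z : X) :
    (orb A z).ncard = (stabilizer G z).relIndex A := by
  rw [orb_eq, ← index_stabilizer]; rfl

theorem mem_orb_self (A : Subgroup G) (z : X) : z ∈ orb A z := ⟨1, A.one_mem, one_smul _ _⟩

theorem orb_eq_of_mem {A : Subgroup G} {z w : X} (h : w ∈ orb A z) : orb A w = orb A z := by
  rw [orb_eq] at h; rw [orb_eq, orb_eq]; exact orbit_eq_iff.2 h

theorem dvd_ncard_of_orb [Finite X] (A : Subgroup G) {s : ℕ} (Z : Set X)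
    (hZ : ∀ g ∈ A, ∀ z ∈ Z, g • z ∈ Z) (h : ∀ z ∈ Z, s ∣ (orb A z).ncard) : s ∣ Z.ncard := by
  induction Z using WellFoundedLT.induction with
  | ind Z ih =>
  rcases Z.eq_empty_or_nonempty with rfl | ⟨z, hz⟩
  · simp
  have h1 : orb A z ⊆ Z := by rintro _ ⟨g, hg, rfl⟩; exact hZ g hg z hz
  have h2 := ih (Z \ orb A z) (Set.sdiff_ssubset_left_iff.2 ⟨z, hz, mem_orb_self A z⟩)
    (fun g hg w hw => ⟨hZ g hg w hw.1, fun h' => hw.2 (by
      rw [← orb_eq_of_mem h']; exact ⟨g⁻¹, A.inv_mem hg, inv_smul_smul g w⟩)⟩)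
    (fun w hw => h w hw.1)
  rw [← Set.ncard_sdiff_add_ncard_of_subset h1]
  exact dvd_add h2 (h z hz)

theorem dvd_ncard_orb_of_coprime {R H : Subgroup G} (hle : R ≤ H) {z : X} {d : ℕ}
    (hd : d ∣ (orb H z).ncard) (hc : d.Coprime (R.relIndex H)) : d ∣ (orb R z).ncard := by
  rw [ncard_orb] at hd ⊢
  have h1 := Subgroup.relIndex_inf_mul_relIndex (stabilizer G z) R H
  rw [inf_eq_left.2 hle] at h1
  refine hc.dvd_of_dvd_mul_right ?_
  rw [h1]
  exact hd.trans (Subgroup.relIndex_dvd_of_le_left _ inf_le_left)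

theorem exists_syl [Finite G] {p : ℕ} [Fact p.Prime] {U H : Subgroup G} (hU : IsPGroup p U)
    (hle : U ≤ H) : ∃ R : Subgroup G, U ≤ R ∧ R ≤ H ∧ IsPGroup p R ∧ ¬ p ∣ R.relIndex H := by
  obtain ⟨S, hS⟩ := (hU.comap_subtype (K := H)).exists_le_sylow
  refine ⟨S.1.map H.subtype, fun u hu => ⟨⟨u, hle hu⟩, hS hu, rfl⟩, Subgroup.map_subtype_le _,
    S.2.map _, ?_⟩
  rw [Subgroup.relIndex, Subgroup.subgroupOf,
    Subgroup.comap_map_eq_self_of_injective Subtype.val_injective]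
  exact S.not_dvd_index

theorem exists_central [Finite G] {p : ℕ} [hp : Fact p.Prime] {R : Subgroup G} (hR : IsPGroup p R)
    (h1 : R ≠ ⊥) : ∃ z ∈ R, z ≠ 1 ∧ z ^ p = 1 ∧ ∀ r ∈ R, r * z = z * r := by
  have : Nontrivial R := (Subgroup.nontrivial_iff_ne_bot R).2 h1
  have := hR.center_nontrivial
  obtain ⟨n, hn0, hn⟩ := (hR.to_subgroup (Subgroup.center R)).nontrivial_iff_card.1 this
  obtain ⟨z, hz⟩ := exists_prime_orderOf_dvd_card' (G := Subgroup.center R) p
    (by rw [hn]; exact dvd_pow_self p hn0.ne')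
  refine ⟨z.1.1, z.1.2, fun e => ?_, ?_, fun r hr => ?_⟩
  · have : z = 1 := Subtype.ext (Subtype.ext e)
    rw [this, orderOf_one] at hz
    exact hp.out.one_lt.ne hz
  · have := pow_orderOf_eq_one z
    rw [hz] at this
    exact congrArg (fun x : Subgroup.center R => x.1.1) this
  · exact congrArg Subtype.val (Subgroup.mem_center_iff.1 z.2 ⟨r, hr⟩)

theorem exists_over_two [Finite G] {U H : Subgroup G} (hU : IsPGroup 2 U) (hle : U ≤ H)
    (h2 : 2 ∣ U.relIndex H) : ∃ (K : Subgroup G) (t : G), U < K ∧ K ≤ H ∧ IsPGroup 2 K ∧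
      Nat.card K = Nat.card U * 2 ∧ t ∈ K ∧
      t ∈ Subgroup.normalizer (U : Set G) ∧ t * t ∈ U ∧ ∀ u ∈ K, u ∈ U ∨ u * t ∈ U := by
  obtain ⟨k, hk⟩ := hU.exists_card_eq
  have hc : Nat.card (U.subgroupOf H) = 2 ^ k := by
    rw [← hk]; exact Nat.card_congr (Subgroup.subgroupOfEquivOfLe hle).toEquiv
  obtain ⟨K', hK1, hK2⟩ := Sylow.exists_subgroup_card_pow_succ (G := H) (p := 2) (n := k) (by
    rw [← (U.subgroupOf H).card_mul_index, hc, pow_succ]
    exact Nat.mul_dvd_mul_left _ h2) hc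
  let K := K'.map H.subtype
  have hKc : Nat.card K = 2 ^ (k + 1) := by
    rw [← hK1]; exact Subgroup.card_map_of_injective Subtype.val_injective
  have hUK : U ≤ K := fun u hu => ⟨⟨u, hle hu⟩, hK2 hu, rfl⟩
  have hi : (U.subgroupOf K).index = 2 := by
    have := (U.subgroupOf K).card_mul_index
    rw [hKc, Nat.card_congr (Subgroup.subgroupOfEquivOfLe hUK).toEquiv, hk, pow_succ] at this
    exact Nat.eq_of_mul_eq_mul_left (by positivity) this
  obtain ⟨t, ht⟩ : ∃ t : K, t ∉ U.subgroupOf K := by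
    by_contra hc; push Not at hc
    rw [(Subgroup.eq_top_iff' _).2 hc, Subgroup.index_top] at hi; omega
  have hN := Subgroup.normal_of_index_eq_two hi
  refine ⟨K, t, lt_of_le_of_ne hUK fun e => ht ?_, Subgroup.map_subtype_le _,
    IsPGroup.of_card hKc, by rw [hKc, hk, pow_succ], t.2, ?_,
    Subgroup.mul_self_mem_of_index_two hi t, fun u hu => ?_⟩
  · exact Subgroup.mem_subgroupOf.2 (by rw [e]; exact t.2)
  · exact Subgroup.mem_normalizer_fintype fun n hn => hN.conj_mem ⟨n, hUK hn⟩ hn t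
  · by_cases h : (⟨u, hu⟩ : K) ∈ U.subgroupOf K
    · exact Or.inl h
    · exact Or.inr ((Subgroup.mul_mem_iff_of_index_two hi (a := ⟨u, hu⟩) (b := t)).2
        (by simp [h, ht]))

end Grp

variable {G P L : Type*} [Group G] [Membership P L] [MulAction G P] [MulAction G L] [Coll G P L]
  [ProjectivePlane P L] [Finite P] [Finite L] [Finite G]

/-- An involutory homology with centre `c` and axis `a`. -/
structure Hom (s : G) (c : P) (a : L) : Prop where
  ne : s ≠ 1
  sq : s * s = 1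
  centre : Centre L s c
  axis : Axis P s a
  notMem : c ∉ a

theorem Hom.dual {s : G} {c : P} {a : L} (h : Hom s c a) :
    Hom (P := Dual L) (L := Dual P) s a c := ⟨h.ne, h.sq, h.axis, h.centre, h.notMem⟩

theorem odd_card_elA (hodd : Odd (order P L)) (a : L) : ¬ 2 ∣ Nat.card (elA G P a) := by
  intro h
  have : Fact (Nat.Prime 2) := ⟨Nat.prime_two⟩
  obtain ⟨t, ht⟩ := exists_prime_orderOf_dvd_card' 2 h
  obtain ⟨h1, c, h2, h3⟩ := t.2
  have h4 : (t : G) ≠ 1 := fun e => by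
    rw [show t = 1 from Subtype.ext e, orderOf_one] at ht; omega
  have := dvd_of_elation h4 h3 h1 h2 Nat.prime_two
    (by rw [← ht]; exact congrArg Subtype.val (pow_orderOf_eq_one t))
  exact (Nat.not_even_iff_odd.2 hodd) (even_iff_two_dvd.2 this)

theorem Hom.mul_mem {s s' : G} {c c' : P} {a : L} (h : Hom s c a) (h' : Hom s' c' a)
    (hc : c ≠ c') : s' * s ∈ elA G P a := by
  have hax := h'.axis.mul h.axis
  obtain ⟨e, he⟩ := hax.exists_centre
  refine ⟨hax, e, ?_, he⟩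
  by_contra hea
  have hi : s⁻¹ = s := inv_eq_of_mul_eq_one_right h.sq
  have h1 : s' * s ≠ 1 := fun e => by
    have : s' = s := by rw [← hi]; exact eq_inv_of_mul_eq_one_left e
    exact hc (h.centre.unique h.ne (this ▸ h'.centre))
  have h2 := (he.conj s).inv
  have h3 : (s * (s' * s) * s⁻¹)⁻¹ = s' * s := by
    rw [mul_assoc, mul_inv_cancel_right, mul_inv_rev, hi, inv_eq_of_mul_eq_one_right h'.sq]
  rw [h3] at h2
  have h4 : s • e = e := h2.unique h1 he
  have h5 : s' • e = e := by have := he.fix; rwa [mul_smul, h4] at this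
  exact hc (((fixed_point_cases h.ne h.centre h.axis h4).resolve_right hea).symm.trans
    ((fixed_point_cases h'.ne h'.centre h'.axis h5).resolve_right hea))

theorem Hom.mem_orb (hodd : Odd (order P L)) {s s' : G} {c c' : P} {a : L} (h : Hom s c a)
    (h' : Hom s' c' a) : c' ∈ orb (elA G P a) c := by
  by_cases hc : c = c'
  · rw [← hc]; exact mem_orb_self _ _
  obtain ⟨x, hx, hx'⟩ := exists_smul_fixed (Z := orb (elA G P a) c) (g := s') Nat.prime_two
    (by rw [pow_two, h'.sq]) (by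
      rintro _ ⟨t, ht, rfl⟩
      refine ⟨s' * t * s'⁻¹ * (s' * s), (elA G P a).mul_mem ?_ (h.mul_mem h' hc), ?_⟩
      · have := conj_mem_elA ht s'
        rwa [h'.axis.fix] at this
      · simp [mul_smul, h.centre.fix]) (fun h2 => odd_card_elA (G := G) hodd a (by
      rw [ncard_orb] at h2
      exact h2.trans (Subgroup.relIndex_dvd_card _ _)))
  rcases fixed_point_cases h'.ne h'.centre h'.axis hx' with h1 | h1
  · exact h1 ▸ hx
  · obtain ⟨t, ht, rfl⟩ := hx
    exact absurd (ht.1.fix ▸ h1) (smul_notMem h.notMem)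

theorem pow_eq_one_of_centre_ne {g t : G} {a : L} {c d : P} (hcd : c ≠ d) (hg : Axis P g a)
    (ht : Axis P t a) (hca : c ∈ a) (hda : d ∈ a) (hd : Centre L g d) (hc : Centre L t c)
    (ht1 : t ≠ 1) {r : ℕ} (hr : t ^ r = 1) : g ^ r = 1 := by
  have hcomm : Commute g t := elA_comm_of_ne hcd.symm hg ht hda hca hd hc
  obtain ⟨e, he⟩ := (hg.mul ht).exists_centre
  have h1 := he.pow r
  rw [hcomm.mul_pow, hr, mul_one] at h1
  refine eq_one_of_centres (u := e) (v := d) ?_ h1 (hd.pow r)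
  rintro rfl
  have := hd.inv.mul he
  rw [inv_mul_cancel_left] at this
  exact hcd (hc.unique ht1 this)

theorem isPGroup_elA {a : L} {t t' : G} {c c' : P} (hcc : c ≠ c') (ht : Axis P t a)
    (ht' : Axis P t' a) (hca : c ∈ a) (hca' : c' ∈ a) (hc : Centre L t c) (hc' : Centre L t' c')
    (h1 : t ≠ 1) (h1' : t' ≠ 1) : ∃ r : ℕ, r.Prime ∧ IsPGroup r (elA G P a) := by
  obtain ⟨r, hr, hd⟩ := Nat.exists_prime_and_dvd (n := orderOf t) (by simpa using h1)
  let u := t ^ (orderOf t / r)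
  have hu : orderOf u = r := orderOf_pow_orderOf_div (orderOf_pos t).ne' hd
  have hu1 : u ≠ 1 := fun e => by rw [e, orderOf_one] at hu; exact hr.one_lt.ne hu
  have hur : u ^ r = 1 := hu ▸ pow_orderOf_eq_one u
  have hua : Axis P u a := Centre.pow (P := Dual L) (L := Dual P) ht _
  have key : ∀ (g : G) (d : P), Axis P g a → d ∈ a → Centre L g d → c ≠ d → g ^ r = 1 := fun g d h2 h3 h4 h5 =>
    pow_eq_one_of_centre_ne h5 h2 hua hca h3 h4 (hc.pow _) hu1 hur
  refine ⟨r, hr, fun g => ⟨1, Subtype.ext ?_⟩⟩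
  obtain ⟨h2, d, h3, h4⟩ := g.2
  rw [pow_one]
  by_cases h5 : c = d
  · exact pow_eq_one_of_centre_ne (h5 ▸ hcc.symm) h2 ht' hca' h3 h4 hc' h1'
      (key t' c' ht' hca' hc' hcc)
  · exact key g d h2 h3 h4 h5

variable (G) in
/-- The elations with axis `k` are transitive on the other lines through `y`. -/
def Tr (y : P) (k : L) : Prop := ∀ l l' : L, y ∈ l → l ≠ k → y ∈ l' → l' ≠ k → l' ∈ orb (elA G P k) l

theorem Tr.exists {y : P} {k : L} (hy : y ∈ k) (h : Tr G y k) :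
    ∃ (t : G) (c : P), t ≠ 1 ∧ Axis P t k ∧ c ∈ k ∧ Centre L t c ∧ c ≠ y := by
  obtain ⟨l, hl, hlk, -⟩ := exists_thru_ne y k k
  obtain ⟨l', hl', hlk', hll⟩ := exists_thru_ne y k l
  obtain ⟨t, ⟨h1, c, h2, h3⟩, ht⟩ := h l l' hl hlk hl' hlk'
  refine ⟨t, c, ?_, h1, h2, h3, ?_⟩
  · rintro rfl; exact hll (by rw [← ht, one_smul])
  · rintro rfl; exact hll (by rw [← ht, h3 l hl])

theorem orb_elA_subset {y : P} {k l : L} (hy : y ∈ k) (hl : y ∈ l) (hlk : l ≠ k) :
    orb (elA G P k) l ⊆ {m : L | y ∈ m ∧ m ≠ k} := by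
  rintro _ ⟨t, ht, rfl⟩
  exact ⟨mem_smul_of_fix (ht.1 y hy) hl, fun e => hlk (smul_left_cancel t (e.trans ht.1.fix.symm))⟩

theorem Tr.isPrimePow {y : P} {k : L} (hy : y ∈ k) (h : Tr G y k) {r : ℕ} (hr : r.Prime)
    (hp : IsPGroup r (elA G P k)) : IsPrimePow (order P L) := by
  have := Fact.mk hr
  obtain ⟨l, hl, hlk, -⟩ := exists_thru_ne y k k
  have h1 : orb (elA G P k) l = {m : L | y ∈ m ∧ m ≠ k} :=
    (orb_elA_subset hy hl hlk).antisymm fun m hm => h l m hl hlk hm.1 hm.2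
  have h2 := ncard_orb (elA G P k) l
  rw [h1, ncard_lns_ne hy] at h2
  obtain ⟨n, hn⟩ := hp.index ((stabilizer G l).subgroupOf _)
  refine (isPrimePow_nat_iff _).2 ⟨r, n, hr, ?_, hn.symm.trans h2.symm⟩
  by_contra h0
  have := one_lt_order P L
  rw [h2, Subgroup.relIndex, hn, show n = 0 by omega, pow_zero] at this
  omega

theorem tr_of_two_orbits (hodd : Odd (order P L)) {y : P} {k : L} (hy : y ∈ k) (A : L → Prop)
    (h1 : ∀ l l', y ∈ l → l ≠ k → y ∈ l' → l' ≠ k → (A l ↔ A l') → l' ∈ orb (elA G P k) l) :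
    Tr G y k := by
  intro l l' hl hlk hl' hlk'
  by_contra hn
  have hst : ∀ m : L, y ∈ m → m ≠ k → (orb (elA G P k) m).ncard = (orb (elA G P k) l).ncard := by
    have : ∀ m m' : L, y ∈ m → m ≠ k → y ∈ m' → ∀ t ∈ elA G P k, t • m = m → t • m' = m' := by
      rintro m m' hm hmk hm' t ⟨h2, c, h3, h4⟩ h5
      by_cases t1 : t = 1
      · rw [t1, one_smul]
      refine h4 m' ?_
      rwa [point_eq hmk ((fixed_line_cases t1 h4 h2 h5).resolve_left hmk) h3 hm hy]
    intro m hm hmk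
    rw [ncard_orb, ncard_orb, Subgroup.relIndex, Subgroup.relIndex]
    congr 1
    ext t
    exact ⟨this m l hm hmk hl t t.2, this l m hl hlk hm t t.2⟩
  have h2 : {m : L | y ∈ m ∧ m ≠ k} = orb (elA G P k) l ∪ orb (elA G P k) l' := by
    refine Set.Subset.antisymm (fun m hm => ?_)
      (Set.union_subset (orb_elA_subset hy hl hlk) (orb_elA_subset hy hl' hlk'))
    by_cases h3 : A l ↔ A m
    · exact Or.inl (h1 l m hl hlk hm.1 hm.2 h3)
    · refine Or.inr (h1 l' m hl' hlk' hm.1 hm.2 ?_)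
      have := mt (h1 l l' hl hlk hl' hlk') hn
      tauto
  have h3 : Disjoint (orb (elA G P k) l) (orb (elA G P k) l') := Set.disjoint_left.2 fun m h4 h5 =>
    hn (by rw [← orb_eq_of_mem h4, orb_eq_of_mem h5]; exact mem_orb_self _ _)
  have h4 := ncard_lns_ne hy
  rw [h2, Set.ncard_union_eq h3, hst l' hl' hlk'] at h4
  exact (Nat.not_even_iff_odd.2 hodd) ⟨_, h4.symm⟩

theorem tr_or_tr (hodd : Odd (order P L))
    (H : ∀ (u y : P) (l : L), y ∈ l → u ∉ l → ∃ (s : G) (c : P) (a : L), Hom s c a ∧ s • u = u ∧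
      s • y = y ∧ s • l = l) {y : P} {k : L} (hy : y ∈ k) :
    Tr G y k ∨ Tr (P := Dual L) (L := Dual P) G k y := by
  have hodd' : Odd (order (Dual L) (Dual P)) := by rwa [Dual.order]
  by_cases h : ∀ u ∈ k, u ≠ y → ∃ (s : G) (a : L), Hom s y a ∧ u ∈ a
  · right
    intro u u' hu huy hu' huy'
    obtain ⟨s, a, hs, ha⟩ := h u hu huy
    obtain ⟨s', a', hs', ha'⟩ := h u' hu' huy'
    obtain ⟨t, ht, e⟩ := hs.dual.mem_orb hodd' hs'.dual
    refine ⟨t, ht, point_eq (P := P) (l := k) (m := a') (fun e => hs'.notMem (e ▸ hy))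
      (smul_mem_of_fix (ht.1 k hy) hu) (e ▸ smul_mem ha) hu' ha'⟩
  left
  push Not at h
  obtain ⟨u, hu, huy, h⟩ := h
  have key : ∀ l : L, y ∈ l → l ≠ k → (∃ s : G, Hom s u l) ∨ ∃ (s : G) (c : P), c ∈ l ∧ Hom s c k := by
    intro l hl hlk
    have hul : u ∉ l := fun h' => hlk (line_eq huy h' hl hu hy)
    obtain ⟨s, c, a, hs, h1, h2, h3⟩ := H u y l hl hul
    rcases fixed_point_cases hs.ne hs.centre hs.axis h1 with h4 | h4
    · subst h4
      exact Or.inl ⟨s, ((fixed_line_cases hs.ne hs.centre hs.axis h3).resolve_right hul) ▸ hs⟩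
    rcases fixed_point_cases hs.ne hs.centre hs.axis h2 with h5 | h5
    · subst h5; exact absurd h4 (h s a hs)
    have h6 : a = k := line_eq huy h4 h5 hu hy
    subst h6
    exact Or.inr ⟨s, c, (fixed_line_cases hs.ne hs.centre hs.axis h3).resolve_left hlk, hs⟩
  refine tr_of_two_orbits hodd hy (fun l => ∃ s : G, Hom s u l) fun l l' hl hlk hl' hlk' hA => ?_
  by_cases h1 : ∃ s : G, Hom s u l
  · obtain ⟨s', hs'⟩ := hA.1 h1
    obtain ⟨s, hs⟩ := h1
    by_cases hll : l = l'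
    · rw [hll]; exact mem_orb_self _ _
    obtain ⟨t, ⟨ht, b, hub, hb⟩, e⟩ := hs.dual.mem_orb hodd' hs'.dual
    obtain ⟨z, hz1, hz2⟩ := exists_meet (P := P) l b
    have hz3 : z ∈ l' := e ▸ mem_smul_of_fix (P := P) (L := L) (hb z hz2) hz1
    have hzy : z = y := point_eq hll hz1 hz3 hl hl'
    have : b = k := line_eq (P := P) (L := L) huy hub (hzy ▸ hz2) hu hy
    exact ⟨t, ⟨this ▸ hb, u, hu, ht⟩, e⟩
  · obtain ⟨s, c, hc, hs⟩ := (key l hl hlk).resolve_left h1
    obtain ⟨s', c', hc', hs'⟩ := (key l' hl' hlk').resolve_left (fun h2 => h1 (hA.2 h2))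
    obtain ⟨t, ht, e⟩ := hs.mem_orb hodd hs'
    exact ⟨t, ht, line_eq (p := c') (q := y) (fun e => hs'.notMem (e ▸ hy)) (e ▸ smul_mem hc)
      (mem_smul_of_fix (ht.1 y hy) hl) hc' hl'⟩

theorem isPrimePow_of_tr {y : P} {k : L} (hy : y ∈ k) (h : Tr G y k)
    (H : ∀ c ∈ k, Tr G c k ∨ Tr (P := Dual L) (L := Dual P) G k c) : IsPrimePow (order P L) := by
  obtain ⟨t, c, h1, h2, h3, h4, -⟩ := h.exists hy
  rcases H c h3 with h5 | h5
  · obtain ⟨t', c', h1', h2', h3', h4', h6⟩ := h5.exists h3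
    obtain ⟨r, hr, hp⟩ := isPGroup_elA h6 h2' h2 h3' h3 h4' h4 h1' h1
    exact h.isPrimePow hy hr hp
  · obtain ⟨t', b, h1', h2', h3', h4', h6⟩ := Tr.exists (P := Dual L) (L := Dual P) h3 h5
    obtain ⟨r, hr, hp⟩ := isPGroup_elA (P := Dual L) (L := Dual P) h6 h2' h4 h3' h3 h4' h2 h1' h1
    have := Tr.isPrimePow (P := Dual L) (L := Dual P) h3 h5 hr hp
    rwa [Dual.order] at this

/-- If every triple (point `u`, flag `(y, l)` with `u ∉ l`) of a plane of odd order is fixed by an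
involutory homology then the order is a prime power. -/
theorem isPrimePow_of_hom (hodd : Odd (order P L))
    (H : ∀ (u y : P) (l : L), y ∈ l → u ∉ l → ∃ (s : G) (c : P) (a : L), Hom s c a ∧ s • u = u ∧
      s • y = y ∧ s • l = l) : IsPrimePow (order P L) := by
  obtain ⟨-, y, -, -, k, -, -, -, -, hy, -⟩ := ProjectivePlane.exists_config (P := P) (L := L)
  rcases tr_or_tr hodd H hy with h | h
  · exact isPrimePow_of_tr hy h fun c hc => tr_or_tr hodd H hc
  · have := isPrimePow_of_tr (P := Dual L) (L := Dual P) hy h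
      fun c hc => (tr_or_tr hodd H hc).symm
    rwa [Dual.order] at this

end Cfsg.Agent.Proj
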