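import Mathlib
import Cfsg.Agent.Proj.Homol

/-! Ostrom-Wagner: a collineation group of a finite projective plane which is doubly transitive
on points contains a nontrivial elation. -/

set_option autoImplicit false
set_option linter.unusedSectionVars false

namespace Cfsg.Agent.Proj
open Configuration ProjectivePlane MulAction

theorem ncard_mul_eq_mul {α β : Type*} [Finite α] [Finite β] {s : Set α} {t : Set β}
    (r : α → β → Prop) {m n : ℕ} (hm : ∀ a ∈ s, {b | b ∈ t ∧ r a b}.ncard = m)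
    (hn : ∀ b ∈ t, {a | a ∈ s ∧ r a b}.ncard = n) : s.ncard * m = t.ncard * n := by
  classical
  have := Fintype.ofFinite α
  have := Fintype.ofFinite β
  rw [Set.ncard_eq_toFinset_card' s, Set.ncard_eq_toFinset_card' t]
  refine Finset.card_mul_eq_card_mul r (fun a ha => ?_) fun b hb => ?_
  · rw [← hm a (by simpa using ha), Set.ncard_eq_toFinset_card']
    congr 1; ext b; simp
  · rw [← hn b (by simpa using hb), Set.ncard_eq_toFinset_card']
    congr 1; ext a; simp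

theorem card_mul_relIndex' {G : Type*} [Group G] {R H : Subgroup G} (hle : R ≤ H) :
    Nat.card R * R.relIndex H = Nat.card H := by
  rw [← (R.subgroupOf H).card_mul_index, Nat.card_congr (Subgroup.subgroupOfEquivOfLe hle).toEquiv]
  rfl

theorem card_eq_of_conj {G : Type*} [Group G] (g : G) {A B : Subgroup G}
    (h : ∀ n, g * n * g⁻¹ ∈ B ↔ n ∈ A) : Nat.card A = Nat.card B :=
  Nat.card_congr ((MulAut.conj g).toEquiv.subtypeEquiv fun n => (h n).symm)

theorem conj_mem_stab {G X : Type*} [Group G] [MulAction G X] (g n : G) (x : X) :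
    g * n * g⁻¹ ∈ stabilizer G (g • x) ↔ n ∈ stabilizer G x := by
  simp [mul_smul]

variable {G P L : Type*} [Group G] [Membership P L] [MulAction G P] [MulAction G L] [Coll G P L]
  [ProjectivePlane P L] [Finite P] [Finite L] [Finite G]

theorem ncard_meet {l m : L} (h : l ≠ m) : {p : P | p ∈ l ∧ p ∈ m}.ncard = 1 := by
  obtain ⟨z, h1, h2⟩ := exists_meet' (P := P) h
  exact Set.ncard_eq_one.2 ⟨z, Set.eq_singleton_iff_unique_mem.2
    ⟨⟨h1, h2⟩, fun p hp => point_eq h hp.1 hp.2 h1 h2⟩⟩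

theorem exists_fixed_triple {g : G} (hg : g * g = 1) :
    ∃ (u y : P) (l : L), y ∈ l ∧ u ∉ l ∧ g • u = u ∧ g • y = y ∧ g • l = l := by
  by_cases h1 : g = 1
  · obtain ⟨p₁, p₂, -, -, l₂, -, h2, -, -, h3, -⟩ := ProjectivePlane.exists_config (P := P) (L := L)
    exact ⟨p₁, p₂, l₂, h3, h2, by simp [h1], by simp [h1], by simp [h1]⟩
  rcases planar_or_axis P L hg h1 with ⟨p₁, p₂, -, -, l₂, -, h2, -, -, h3, -⟩ | ⟨a, ha⟩
  · exact ⟨p₁.1, p₂.1, l₂.1, h3, h2, p₁.2 g rfl, p₂.2 g rfl, l₂.2 g rfl⟩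
  obtain ⟨c, hc⟩ := ha.exists_centre
  obtain ⟨l, hl, hla, -⟩ := exists_thru_ne c a a
  obtain ⟨z, hz1, hz2⟩ := exists_meet' (P := P) hla
  obtain ⟨u, hu, huz, -⟩ := exists_mem_ne a z z
  exact ⟨u, c, l, hl, fun h => huz (point_eq hla h hu hz1 hz2), ha u hu, hc.fix, hc l hl⟩

variable (h2 : ∀ x y x' y' : P, x ≠ y → x' ≠ y' → ∃ g : G, g • x = x' ∧ g • y = y')
include h2

theorem orb_stab_point {x y : P} (h : y ≠ x) : orb (stabilizer G x) y = {z | z ≠ x} := by
  ext z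
  constructor
  · rintro ⟨g, hg, rfl⟩ e
    exact h (smul_left_cancel g (e.trans hg.symm))
  · intro hz
    obtain ⟨g, h3, h4⟩ := h2 x y x z h.symm (Ne.symm hz)
    exact ⟨g, h3, h4⟩

theorem orb_stab_thru {x : P} {k : L} (h : x ∈ k) : orb (stabilizer G x) k = {m | x ∈ m} := by
  ext m
  constructor
  · rintro ⟨g, hg, rfl⟩
    exact mem_smul_of_fix hg h
  · intro hm
    obtain ⟨y, hy, hyx, -⟩ := exists_mem_ne k x x
    obtain ⟨z, hz, hzx, -⟩ := exists_mem_ne m x x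
    obtain ⟨g, h3, h4⟩ := h2 x y x z hyx.symm hzx.symm
    exact ⟨g, h3, line_eq hzx (h4 ▸ smul_mem hy) (mem_smul_of_fix h3 h) hz hm⟩

theorem orb_stab_off {x : P} {l : L} (h : x ∉ l) : orb (stabilizer G x) l = {m | x ∉ m} := by
  have hsub : orb (stabilizer G x) l ⊆ {m | x ∉ m} := by
    rintro _ ⟨g, hg, rfl⟩
    have := smul_notMem (g := g) h
    rwa [hg] at this
  refine hsub.antisymm fun l' hl' => ?_
  by_contra hn
  set O := orb (stabilizer G x) l
  obtain ⟨y, hy, -⟩ := exists_meet (P := P) l l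
  have hyx : y ≠ x := fun e => h (e ▸ hy)
  have hc : ∀ p : P, p ≠ x → {m | m ∈ O ∧ p ∈ m}.ncard = {m | m ∈ O ∧ y ∈ m}.ncard := by
    intro p hp
    obtain ⟨g, h3, h4⟩ := h2 x p x y hp.symm hyx.symm
    have hO : ∀ g : G, g • x = x → ∀ m ∈ O, g • m ∈ O := by
      rintro g hg _ ⟨g', hg', rfl⟩
      exact ⟨g * g', mul_mem (show g ∈ stabilizer G x from hg) hg', mul_smul _ _ _⟩
    refine Set.ncard_congr (fun m _ => g • m) (fun m hm => ⟨hO g h3 m hm.1, h4 ▸ smul_mem hm.2⟩)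
      (fun a b _ _ e => smul_left_cancel g e) fun m hm => ⟨g⁻¹ • m, ⟨hO _ ?_ m hm.1, ?_⟩, by simp⟩
    · rw [inv_smul_eq_iff, h3]
    · have := smul_mem (g := g⁻¹) hm.2
      rwa [← h4, inv_smul_smul] at this
  have e1 := ncard_mul_eq_mul (s := {p : P | p ∈ l'}) (t := O) (fun p m => p ∈ m)
    (fun p hp => hc p fun e => hl' (e ▸ hp))
    (fun m hm => ncard_meet (P := P) (l := l') (m := m) fun e => hn (e ▸ hm))
  have hl : l ∈ O := mem_orb_self _ _
  have e2 := ncard_mul_eq_mul (s := {p : P | p ∈ l}) (t := O \ {l}) (fun p m => p ∈ m)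
    (m := {m | m ∈ O ∧ y ∈ m}.ncard - 1)
    (fun p hp => by
      rw [← hc p fun e => h (e ▸ hp), ← Set.ncard_sdiff_singleton_of_mem (a := l)
        (s := {m | m ∈ O ∧ p ∈ m}) ⟨hl, hp⟩]
      congr 1; ext m; simp; tauto)
    (fun m hm => ncard_meet (P := P) (l := l) (m := m) (Ne.symm hm.2))
  have e3 := Set.ncard_sdiff_singleton_add_one hl
  have e4 : 0 < {m | m ∈ O ∧ y ∈ m}.ncard := (Set.ncard_pos (Set.toFinite _)).2 ⟨l, hl, hy⟩
  rw [ncard_pts] at e1 e2
  obtain ⟨c, hc'⟩ := Nat.exists_eq_add_of_lt e4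
  rw [hc'] at e1 e2
  have := one_lt_order P L
  simp only [zero_add, Nat.add_sub_cancel] at e1 e2
  nlinarith

theorem orb_stab_two {u y : P} {l k : L} (hu : u ∈ k) (hy : y ∈ k) (huy : u ≠ y) (hl : y ∈ l)
    (hlk : l ≠ k) : orb (stabilizer G u ⊓ stabilizer G y) l = {m | y ∈ m ∧ m ≠ k} := by
  have hul : u ∉ l := fun h => hlk (line_eq huy h hl hu hy)
  have h3 := dvd_ncard_orb_of_coprime (R := stabilizer G u ⊓ stabilizer G k) (H := stabilizer G u)
    inf_le_left (z := l) dvd_rfl (by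
      rw [Subgroup.inf_relIndex_left, ← ncard_orb, orb_stab_thru h2 hu, orb_stab_off h2 hul,
        ncard_off_lns, ncard_lns]
      exact Nat.Coprime.pow_left 2 (by simp))
  have h4 : orb (stabilizer G u ⊓ stabilizer G k) l = orb (stabilizer G u) l :=
    Set.eq_of_subset_of_ncard_le (fun m ⟨g, hg, e⟩ => ⟨g, hg.1, e⟩) (Nat.le_of_dvd
      ((Set.ncard_pos (Set.toFinite _)).2 ⟨l, mem_orb_self _ _⟩) h3)
  ext m
  constructor
  · rintro ⟨g, hg, rfl⟩
    exact ⟨mem_smul_of_fix hg.2 hl, fun e => hlk (smul_left_cancel g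
      (e.trans (fix_line huy hu hy hg.1 hg.2).symm))⟩
  · rintro ⟨hm, hmk⟩
    have : m ∈ orb (stabilizer G u ⊓ stabilizer G k) l := by
      rw [h4, orb_stab_off h2 hul]
      exact fun h => hmk (line_eq huy h hm hu hy)
    obtain ⟨g, hg, e⟩ := this
    exact ⟨g, ⟨hg.1, point_eq hmk (e ▸ smul_mem hl) (smul_mem_of_fix hg.2 hy) hm hy⟩, e⟩

theorem card_stab_three {u y u' y' : P} {l l' : L} (hy : y ∈ l) (hu : u ∉ l) (hy' : y' ∈ l')
    (hu' : u' ∉ l') : Nat.card ↥(stabilizer G u ⊓ stabilizer G y ⊓ stabilizer G l) =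
      Nat.card ↥(stabilizer G u' ⊓ stabilizer G y' ⊓ stabilizer G l') := by
  have huy' : u' ≠ y' := fun e => hu' (e ▸ hy')
  obtain ⟨g, rfl, rfl⟩ := h2 u y u' y' (fun e => hu (e ▸ hy)) huy'
  obtain ⟨k, hk1, hk2⟩ := exists_join L (g • u) (g • y)
  have : l' ∈ orb (stabilizer G (g • u) ⊓ stabilizer G (g • y)) (g • l) := by
    rw [orb_stab_two h2 hk1 hk2 huy' (smul_mem hy) (fun e => smul_notMem hu (e ▸ hk1))]
    exact ⟨hy', fun e => hu' (e ▸ hk1)⟩
  obtain ⟨g', ⟨h3, h4⟩, rfl⟩ := this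
  refine card_eq_of_conj (g' * g) fun n => ?_
  have e1 : g • u = (g' * g) • u := by rw [mul_smul, h3]
  have e2 : g • y = (g' * g) • y := by rw [mul_smul, h4]
  rw [e1, e2, ← mul_smul]
  simp only [Subgroup.mem_inf, conj_mem_stab]

include L in
theorem ncard_orb_point {x y : P} (h : y ≠ x) :
    (orb (stabilizer G x) y).ncard = order P L * (order P L + 1) := by
  rw [orb_stab_point h2 h]
  have := Set.ncard_add_ncard_compl ({x} : Set P)
  rw [Set.ncard_singleton, card_P P L] at this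
  have e : {z | z ≠ x} = ({x} : Set P)ᶜ := rfl
  rw [e]; nlinarith

theorem not_planar {u y : P} {l : L} (hy : y ∈ l) (hu : u ∉ l) {R : Subgroup G}
    (hR : IsPGroup 2 R) (hle : R ≤ stabilizer G u ⊓ stabilizer G y ⊓ stabilizer G l)
    (hp : Planar P L (R : Set G)) :
    2 ∣ R.relIndex (stabilizer G u ⊓ stabilizer G y ⊓ stabilizer G l) := by
  obtain ⟨K, t, -, -, -, hc, -, htN, ht2, hcos⟩ := exists_over_two (H := stabilizer G u) hR
    (fun g hg => (hle hg).1.1) (by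
      refine Dvd.dvd.trans ?_ (Subgroup.relIndex_dvd_of_le_left (K := stabilizer G y) _
        fun g hg => (hle hg).1.2)
      rw [← ncard_orb, ncard_orb_point (L := L) h2 (fun e : y = u => hu (e ▸ hy))]
      exact (Nat.even_mul_succ_self _).two_dvd)
  let _ := fixPlane hp
  obtain ⟨u', y', l', hy', hu', e1, e2, e3⟩ := exists_fixed_triple (P := FP (R : Set G) P)
    (L := FP (R : Set G) L) (res_mul_self (P := P) (L := L) R t htN ht2)
  have key : ∀ (X : Type _) [MulAction G X] (x : X), (∀ g ∈ R, g • x = x) → t • x = x →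
      K ≤ stabilizer G x := fun X _ x h3 h4 g hg => by
    rcases hcos g hg with h5 | h5
    · exact h3 g h5
    · have := h3 _ h5
      rwa [mul_smul, h4] at this
  have keyL : K ≤ stabilizer G l'.1 := fun g hg => by
    rcases hcos g hg with h5 | h5
    · exact l'.2 g h5
    · have := l'.2 _ h5
      rwa [mul_smul, show t • l'.1 = l'.1 from congrArg Subtype.val e3] at this
  have h3 := Subgroup.card_dvd_of_le (le_inf (le_inf (key P u'.1 u'.2 (congrArg Subtype.val e1))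
    (key P y'.1 y'.2 (congrArg Subtype.val e2))) keyL)
  rw [card_stab_three h2 hy' hu' hy hu, ← card_mul_relIndex' hle, hc] at h3
  exact Nat.dvd_of_mul_dvd_mul_left Nat.card_pos h3

include L in
theorem isPrimePow_of_odd (hodd : Odd (order P L)) : IsPrimePow (order P L) := by
  obtain ⟨U, ⟨hU, hp⟩, hmax⟩ : ∃ U : Subgroup G, Maximal
      (fun U : Subgroup G => IsPGroup 2 U ∧ Planar P L (U : Set G)) U := by
    refine exists_maximal_of_wellFoundedGT _ ⟨⊥, IsPGroup.of_bot, ?_⟩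
    obtain ⟨p₁, p₂, p₃, l₁, l₂, l₃, h⟩ := ProjectivePlane.exists_config (P := P) (L := L)
    have hP : ∀ p : P, ∀ g ∈ ((⊥ : Subgroup G) : Set G), g • p = p := fun p g hg => by
      rw [Subgroup.mem_bot.1 hg, one_smul]
    have hL : ∀ p : L, ∀ g ∈ ((⊥ : Subgroup G) : Set G), g • p = p := fun p g hg => by
      rw [Subgroup.mem_bot.1 hg, one_smul]
    exact ⟨⟨p₁, hP _⟩, ⟨p₂, hP _⟩, ⟨p₃, hP _⟩, ⟨l₁, hL _⟩, ⟨l₂, hL _⟩, ⟨l₃, hL _⟩, h⟩
  let _ := fixPlane hp
  obtain ⟨r, hr0, hr⟩ := exists_order_eq_pow U hU hp (card_P (FP (U : Set G) P) (FP (U : Set G) L))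
  have hodd' : Odd (order (FP (U : Set G) P) (FP (U : Set G) L)) := by
    rw [hr] at hodd
    exact (Nat.odd_pow_iff hr0.ne').1 hodd
  rw [hr]
  refine IsPrimePow.pow (isPrimePow_of_hom (G := Col (FP (U : Set G) P) (FP (U : Set G) L)) hodd'
    fun u y l hy hu => ?_) hr0.ne'
  have hle : U ≤ stabilizer G u.1 ⊓ stabilizer G y.1 ⊓ stabilizer G l.1 :=
    fun g hg => ⟨⟨u.2 g hg, y.2 g hg⟩, l.2 g hg⟩
  obtain ⟨K, t, hUK, hKH, hK, -, htK, htN, ht2, hcos⟩ := exists_over_two hU hle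
    (not_planar h2 hy hu hU hle hp)
  have hnp : ¬ Planar (FP (U : Set G) P) (FP (U : Set G) L) {res P L U t htN} := fun h => by
    have h3 : Planar P L (K : Set G) := by
      refine ((planar_res_iff U t htN).1 h).mono (fun p hp g hg => ?_) (fun p hp g hg => ?_) <;>
      · rcases hcos g hg with h5 | h5
        · exact hp g (Or.inr h5)
        · have := hp _ (Or.inr h5)
          rwa [mul_smul, hp t (Or.inl rfl)] at this
    exact hUK.not_ge (hmax ⟨hK, h3⟩ hUK.le)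
  have h1 : res P L U t htN ≠ 1 := fun e => hnp (by
    obtain ⟨p₁, p₂, p₃, l₁, l₂, l₃, h⟩ := hp
    have hP : ∀ p : FP (U : Set G) P, ∀ g ∈ ({res P L U t htN} : Set _), g • p = p :=
      fun p g hg => by rw [Set.mem_singleton_iff.1 hg, e, one_smul]
    have hL : ∀ p : FP (U : Set G) L, ∀ g ∈ ({res P L U t htN} : Set _), g • p = p :=
      fun p g hg => by rw [Set.mem_singleton_iff.1 hg, e, one_smul]
    exact ⟨⟨p₁, hP _⟩, ⟨p₂, hP _⟩, ⟨p₃, hP _⟩, ⟨l₁, hL _⟩, ⟨l₂, hL _⟩, ⟨l₃, hL _⟩, h⟩)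
  have hsq := res_mul_self (P := P) (L := L) U t htN ht2
  obtain ⟨a, ha⟩ := (planar_or_axis _ _ hsq h1).resolve_left hnp
  obtain ⟨c, hc⟩ := ha.exists_centre
  refine ⟨_, c, a, ⟨h1, hsq, hc, ha, fun hca => ?_⟩, Subtype.ext (hKH htK).1.1,
    Subtype.ext (hKH htK).1.2, Subtype.ext (hKH htK).2⟩
  exact (Nat.not_even_iff_odd.2 hodd') (even_iff_two_dvd.2
    (dvd_of_elation h1 hc ha hca Nat.prime_two (by rw [pow_two, hsq])))

theorem exists_elation_of_even (hev : Even (order P L)) :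
    ∃ (t : G) (c : P) (a : L), t ≠ 1 ∧ Centre L t c ∧ Axis P t a ∧ c ∈ a := by
  obtain ⟨-, x, y, -, -, l, -, -, -, -, h3, -, -, h4⟩ := ProjectivePlane.exists_config (P := P) (L := L)
  have hyx : y ≠ x := fun e => h4 (e ▸ h3)
  have : Fact (Nat.Prime 2) := ⟨Nat.prime_two⟩
  obtain ⟨R, -, hle, hR, hi⟩ := exists_syl (IsPGroup.of_bot (p := 2)) (bot_le (a := stabilizer G x))
  have key : ∀ k : ℕ, 2 ^ k ∣ order P L → ∀ z : P, z ≠ x → 2 ^ k ∣ (orb R z).ncard := fun k hk z hz =>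
    dvd_ncard_orb_of_coprime hle (by rw [ncard_orb_point (L := L) h2 hz]; exact hk.mul_right _)
      (Nat.Coprime.pow_left _ ((Nat.Prime.coprime_iff_not_dvd Nat.prime_two).2 hi))
  have hR1 : R ≠ ⊥ := by
    rintro rfl
    have := key 1 (by simpa using hev.two_dvd) y hyx
    rw [ncard_orb, Subgroup.relIndex_bot_right] at this
    omega
  obtain ⟨z, hzR, hz1, hz2, hzc⟩ := exists_central hR hR1
  have hzz : z * z = 1 := by rw [← pow_two, hz2]
  rcases planar_or_axis P L hzz hz1 with hp | ⟨a, ha⟩; swap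
  · obtain ⟨c, hc⟩ := ha.exists_centre
    refine ⟨z, c, a, hz1, hc, ha, ?_⟩
    by_contra hca
    exact not_dvd_of_homology hz1 hc ha hca Nat.prime_two hz2 hev.two_dvd
  exfalso
  obtain ⟨s, hs1, hs2⟩ := baer hzz hz1 hp
  have hs0 : s ≠ 0 := by
    rintro rfl
    have := one_lt_order P L
    omega
  obtain ⟨k, m, hm, hkm⟩ := Nat.exists_eq_two_pow_mul_odd hs0
  have hsev : Even s := by rw [hs1] at hev; exact (Nat.even_pow.1 hev).1
  have hk : k ≠ 0 := by
    rintro rfl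
    rw [pow_zero, one_mul] at hkm
    exact (Nat.not_even_iff_odd.2 hm) (hkm ▸ hsev)
  have h5 := dvd_ncard_of_orb R (s := 2 ^ (k * 2)) {p : P | z • p = p ∧ p ≠ x}
    (fun g hg p hp => ⟨by rw [← mul_smul, ← hzc g hg, mul_smul, hp.1], fun e => hp.2
      (smul_left_cancel g (e.trans (hle hg).symm))⟩)
    (fun p hp => key _ (by rw [hs1, hkm, mul_pow, pow_mul]; exact dvd_mul_right _ _) p hp.2)
  have h6 : {p : P | z • p = p ∧ p ≠ x}.ncard + 1 = s ^ 2 + s + 1 := by
    have := Set.ncard_sdiff_singleton_add_one (s := {p : P | z • p = p}) (a := x) (hle hzR)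
    rw [← hs2]
    refine this.trans ?_
    rw [← Nat.card_coe_set_eq]
    exact Nat.card_congr (Equiv.subtypeEquivRight fun p => by simp)
  have h7 : {p : P | z • p = p ∧ p ≠ x}.ncard = 2 ^ k * (m * (s + 1)) := by
    rw [← mul_assoc, ← hkm]; nlinarith
  rw [h7, mul_two, pow_add] at h5
  have h8 := (dvd_pow_self 2 hk).trans (Nat.dvd_of_mul_dvd_mul_left (by positivity) h5)
  exact (Nat.not_even_iff_odd.2 (hm.mul hsev.add_one)) (even_iff_two_dvd.2 h8)

omit h2 in
theorem exists_fixed_line {z : G} {x y : P} {k : L} (hx : x ∈ k) (hy : y ∈ k) (hxy : x ≠ y)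
    (hzx : z • x = x) (hzy : z • y = y) :
    ∃ l : L, l ≠ k ∧ z • l = l := by
  by_contra hc
  push Not at hc
  have hzk := fix_line hxy hx hy hzx hzy
  choose f hf1 hf2 using fun w : P => exists_join L w (z • w)
  have hfk : ∀ w : P, w ∉ k → f w ≠ k := fun w hw e => hw (e ▸ hf1 w)
  have hzw : ∀ w : P, w ∉ k → z • w ∉ k := fun w hw => hzk ▸ smul_notMem hw
  have hnot : ∀ w : P, w ∉ k → ∀ u ∈ k, z • u = u → u ∉ f w := fun w hw u hu hzu h =>
    hc _ (hfk w hw) (line_eq (p := z • w) (q := u) (fun e => hzw w hw (e ▸ hu)) (smul_mem (hf1 w))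
      (mem_smul_of_fix hzu h) (hf2 w) h)
  obtain ⟨m, hm, hmk, -⟩ := exists_thru_ne y k k
  have hxm : x ∉ m := fun h => hmk (line_eq hxy h hm hx hy)
  have h3 := Set.ncard_le_ncard_of_injOn (s := {w : P | w ∉ k}) (t := {l : L | x ∉ l} \ {m}) f
    (fun w hw => ⟨hnot w hw x hx hzx, fun e => hnot w hw y hy hzy (by
      rw [Set.mem_singleton_iff.1 e]; exact hm)⟩)
    (fun w hw w' hw' e => smul_left_cancel z (point_eq (hc _ (hfk w hw)) (smul_mem (hf1 w)) (hf2 w)
      (e ▸ smul_mem (hf1 w')) (e ▸ hf2 w')))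
  have h4 := Set.ncard_sdiff_singleton_add_one (s := {l : L | x ∉ l}) (a := m) hxm
  rw [ncard_off] at h3
  rw [ncard_off_lns] at h4
  omega

theorem exists_elation_of_isPrimePow (hpp : IsPrimePow (order P L)) :
    ∃ (t : G) (c : P) (a : L), t ≠ 1 ∧ Centre L t c ∧ Axis P t a ∧ c ∈ a := by
  obtain ⟨p, e, hp, he, hn⟩ := (isPrimePow_nat_iff _).1 hpp
  have := Fact.mk hp
  obtain ⟨-, x, y, -, k, l₀, -, -, -, hx, h3, -, hy, h4⟩ :=
    ProjectivePlane.exists_config (P := P) (L := L)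
  have hxy : x ≠ y := fun e => h4 (e ▸ h3)
  obtain ⟨R, -, hle, hR, hi⟩ := exists_syl (IsPGroup.of_bot (p := p))
    (bot_le (a := stabilizer G x ⊓ stabilizer G y))
  have hRk : ∀ r ∈ R, r • k = k := fun r hr => fix_line hxy hx hy (hle hr).1 (hle hr).2
  have key : ∀ u ∈ k, (∀ r ∈ R, r • u = u) → ∀ l : L, u ∈ l → l ≠ k →
      orb R l = {m | u ∈ m ∧ m ≠ k} := by
    intro u hu hRu l hl hlk
    obtain ⟨u', hu', huu, hRu'⟩ : ∃ u' ∈ k, u' ≠ u ∧ ∀ r ∈ R, r • u' = u' := by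
      by_cases h : x = u
      · exact ⟨y, hy, h ▸ hxy.symm, fun r hr => (hle hr).2⟩
      · exact ⟨x, hx, h, fun r hr => (hle hr).1⟩
    have hle' : R ≤ stabilizer G u' ⊓ stabilizer G u := fun r hr => ⟨hRu' r hr, hRu r hr⟩
    have hi' : R.relIndex (stabilizer G u' ⊓ stabilizer G u) =
        R.relIndex (stabilizer G x ⊓ stabilizer G y) := by
      refine Nat.eq_of_mul_eq_mul_left (Nat.card_pos (α := R)) ?_
      rw [card_mul_relIndex' hle, card_mul_relIndex' hle']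
      obtain ⟨g, rfl, rfl⟩ := h2 u' u x y huu hxy
      exact card_eq_of_conj g fun n => by simp only [Subgroup.mem_inf, conj_mem_stab]
    have h5 := orb_stab_two h2 hu' hu huu hl hlk
    have h6 := dvd_ncard_orb_of_coprime hle' (z := l) dvd_rfl (by
      rw [h5, ncard_lns_ne hu, ← hn, hi']
      exact Nat.Coprime.pow_left _ ((Nat.Prime.coprime_iff_not_dvd hp).2 hi))
    rw [← h5]
    exact Set.eq_of_subset_of_ncard_le (fun m ⟨g, hg, e⟩ => ⟨g, hle' hg, e⟩) (Nat.le_of_dvd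
      ((Set.ncard_pos (Set.toFinite _)).2 ⟨l, mem_orb_self _ _⟩) h6)
  have hR1 : R ≠ ⊥ := by
    rintro rfl
    obtain ⟨l, hl, hlk, -⟩ := exists_thru_ne x k k
    have h5 := ncard_orb (⊥ : Subgroup G) l
    rw [key x hx (fun r hr => (hle hr).1) l hl hlk, ncard_lns_ne hx,
      Subgroup.relIndex_bot_right] at h5
    have := one_lt_order P L
    omega
  obtain ⟨z, hzR, hz1, hzp, hzc⟩ := exists_central hR hR1
  have hcomm : ∀ r ∈ R, ∀ l : L, z • l = l → z • r • l = r • l := fun r hr l hl => by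
    rw [← mul_smul, ← hzc r hr, mul_smul, hl]
  obtain ⟨u, hu, hRu, l, hl, hlk, hzl⟩ : ∃ u ∈ k, (∀ r ∈ R, r • u = u) ∧
      ∃ l : L, u ∈ l ∧ l ≠ k ∧ z • l = l := by
    by_cases h : ∃ w : P, w ∉ k ∧ z • w = w
    · obtain ⟨w, hw, hzw⟩ := h
      obtain ⟨l, hl1, hl2⟩ := exists_join L x w
      exact ⟨x, hx, fun r hr => (hle hr).1, l, hl1, fun e => hw (e ▸ hl2),
        fix_line (fun e : x = w => hw (e ▸ hx)) hl1 hl2 (hle hzR).1 hzw⟩
    push Not at h
    obtain ⟨l, hlk, hzl⟩ := exists_fixed_line hx hy hxy (hle hzR).1 (hle hzR).2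
    obtain ⟨u, hu1, hu2⟩ := exists_meet' (P := P) hlk
    refine ⟨u, hu2, fun r hr => ?_, l, hu1, hlk, hzl⟩
    by_cases h5 : r • l = l
    · exact fix_point hlk hu1 hu2 h5 (hRk r hr)
    obtain ⟨w, hw1, hw2⟩ := exists_meet' (P := P) h5
    have hwk : w ∈ k := by
      by_contra h6
      exact h w h6 (fix_point h5 hw1 hw2 (hcomm r hr l hzl) hzl)
    have hwu : w = u := point_eq hlk hw2 hwk hu1 hu2
    exact point_eq (l := r • l) (m := k)
      (fun e => hlk (smul_left_cancel r (e.trans (hRk r hr).symm))) (smul_mem hu1)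
      (smul_mem_of_fix (hRk r hr) hu2) (hwu ▸ hw1) hu2
  have hc : Centre L z u := fun m hm => by
    by_cases hmk : m = k
    · rw [hmk]; exact hRk z hzR
    have : m ∈ orb R l := by rw [key u hu hRu l hl hlk]; exact ⟨hm, hmk⟩
    obtain ⟨r, hr, rfl⟩ := this
    exact hcomm r hr l hzl
  obtain ⟨a, ha⟩ := hc.exists_axis
  refine ⟨z, u, a, hz1, hc, ha, ?_⟩
  by_contra hca
  exact not_dvd_of_homology hz1 hc ha hca hp hzp (hn ▸ dvd_pow_self p he.ne')

/-- Ostrom-Wagner: existence of an elation. -/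
theorem exists_elation :
    ∃ (t : G) (c : P) (a : L), t ≠ 1 ∧ Centre L t c ∧ Axis P t a ∧ c ∈ a := by
  rcases Nat.even_or_odd (order P L) with h | h
  · exact exists_elation_of_even h2 h
  · exact exists_elation_of_isPrimePow h2 (isPrimePow_of_odd h2 h)

end Cfsg.Agent.Proj
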