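import Mathlib
import Cfsg.Agent.Proj.ONanMain
import Cfsg.Agent.Solv.FrobeniusKernel

/-! Ito's theorem on doubly transitive groups of symmetric designs. -/

set_option autoImplicit false

namespace Cfsg.Agent.Proj

open MulAction Finset

theorem ncard_eq_sum {α : Type*} [Fintype α] (p : α → Prop) [DecidablePred p] :
    {a | p a}.ncard = ∑ a, if p a then 1 else 0 := by
  rw [Set.ncard_eq_toFinset_card', Finset.sum_boole]; simp

theorem ncard_two {G X Ω : Type*} [Group G] [MulAction G X] [MulAction G Ω] {I : X → Ω → Prop}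
    (hI : ∀ (g : G) x c, I (g • x) (g • c) ↔ I x c) (g : G) (c c' : Ω) :
    {x | I x c ∧ I x c'}.ncard = {x | I x (g • c) ∧ I x (g • c')}.ncard :=
  Set.ncard_congr (fun z _ => g • z) (fun z hz => ⟨(hI g _ _).2 hz.1, (hI g _ _).2 hz.2⟩)
    (fun a b _ _ e => MulAction.injective g e) fun z hz =>
      ⟨g⁻¹ • z, ⟨(hI g _ _).1 (by simpa using hz.1), (hI g _ _).1 (by simpa using hz.2)⟩,
        by simp⟩

theorem lam_eq {X Ω : Type*} [Finite X] [Finite Ω] {I : X → Ω → Prop} {k l : ℕ}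
    (h1 : ∀ x, {c | I x c}.ncard = k) {c : Ω} (h2 : {x | I x c}.ncard = k)
    (h3 : ∀ c', c ≠ c' → {x | I x c ∧ I x c'}.ncard = l) :
    l * (Nat.card Ω - 1) + k = k * k := by
  classical
  have := Fintype.ofFinite X
  have := Fintype.ofFinite Ω
  have e1 : ∑ c', {x | I x c ∧ I x c'}.ncard = k * k := by
    simp only [ncard_eq_sum]
    rw [sum_comm]
    have : ∀ x, (∑ c', if I x c ∧ I x c' then 1 else 0) = k * if I x c then 1 else 0 := fun x => by
      by_cases h : I x c <;> simp only [h, true_and, false_and, if_true, if_false]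
      · rw [← ncard_eq_sum, h1, mul_one]
      · simp
    simp only [this]
    rw [← mul_sum, ← ncard_eq_sum, h2]
  rw [← e1, ← add_sum_erase _ _ (mem_univ c), sum_const_nat (m := l) fun c' hc' =>
    h3 c' (ne_of_mem_erase hc').symm, card_erase_of_mem (mem_univ c)]
  simp only [and_self, h2, card_univ, Nat.card_eq_fintype_card]
  ring

/-- A symmetric design with a group doubly transitive on points and blocks. -/
structure SD (G X Ω : Type*) [Group G] [MulAction G X] [MulAction G Ω] where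
  I : X → Ω → Prop
  k : ℕ
  inv : ∀ (g : G) x c, I (g • x) (g • c) ↔ I x c
  twoX : ∀ x y x' y' : X, x ≠ y → x' ≠ y' → ∃ g : G, g • x = x' ∧ g • y = y'
  twoΩ : ∀ x y x' y' : Ω, x ≠ y → x' ≠ y' → ∃ g : G, g • x = x' ∧ g • y = y'
  faithX : ∀ g : G, (∀ x : X, g • x = x) → g = 1
  faithΩ : ∀ g : G, (∀ x : Ω, g • x = x) → g = 1
  card : Nat.card X = Nat.card Ω
  kX : ∀ x, {c | I x c}.ncard = k
  kΩ : ∀ c, {x | I x c}.ncard = k
  two : 2 ≤ k
  le : k + 2 ≤ Nat.card Ω

namespace SD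

variable {G X Ω : Type*} [Group G] [MulAction G X] [MulAction G Ω] (S : SD G X Ω)

/-- The dual design. -/
def dual : SD G Ω X where
  I c x := S.I x c
  k := S.k
  inv g c x := S.inv g x c
  twoX := S.twoΩ
  twoΩ := S.twoX
  faithX := S.faithΩ
  faithΩ := S.faithX
  card := S.card.symm
  kX := S.kΩ
  kΩ := S.kX
  two := S.two
  le := S.card ▸ S.le

theorem lam_const {c c' d d' : Ω} (h : c ≠ c') (h' : d ≠ d') :
    {x | S.I x c ∧ S.I x c'}.ncard = {x | S.I x d ∧ S.I x d'}.ncard := by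
  obtain ⟨g, rfl, rfl⟩ := S.twoΩ c c' d d' h h'
  exact ncard_two S.inv g c c'

theorem lam_const' {c c' d d' : X} (h : c ≠ c') (h' : d ≠ d') :
    {x | S.I c x ∧ S.I c' x}.ncard = {x | S.I d x ∧ S.I d' x}.ncard := S.dual.lam_const h h'

variable [Finite X] [Finite Ω]

theorem lam_bounds {c c' : Ω} (h : c ≠ c') :
    0 < {x | S.I x c ∧ S.I x c'}.ncard ∧ {x | S.I x c ∧ S.I x c'}.ncard + 2 ≤ S.k := by
  have h1 := lam_eq S.kX (S.kΩ c) fun d hd => S.lam_const hd h
  have h2 := S.two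
  obtain ⟨m, hm⟩ := Nat.exists_eq_add_of_le S.le
  rw [hm, show S.k + 2 + m - 1 = S.k + 1 + m by omega] at h1
  generalize {x | S.I x c ∧ S.I x c'}.ncard = l at h1
  constructor
  · rcases l with _ | l
    · nlinarith
    · omega
  · by_contra h3
    obtain ⟨j, hj⟩ := Nat.exists_eq_add_of_le (show S.k ≤ l + 1 by omega)
    nlinarith

/-- The line through two points. -/
def ln (x y z : X) : Prop := ∀ c, S.I x c → S.I y c → S.I z c

variable {S}

omit [Finite X] in
theorem ln_eq {x y z z' : X} (h : x ≠ y) (hz : S.ln x y z) (hz' : S.ln x y z') (hne : z ≠ z')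
    {c : Ω} (h1 : S.I z c) (h2 : S.I z' c) : S.I x c ∧ S.I y c :=
  (Set.eq_of_subset_of_ncard_le (s := {c | S.I x c ∧ S.I y c}) (t := {c | S.I z c ∧ S.I z' c})
    (fun c hc => ⟨hz c hc.1 hc.2, hz' c hc.1 hc.2⟩) (S.dual.lam_const hne h).le).ge ⟨h1, h2⟩

omit [Finite X] [Finite Ω] in
theorem ln_smul {x z : X} {g : G} (hg : ∀ c, S.I x c → g • c = c) : S.ln x z (g • z) :=
  fun c h1 h2 => by rw [← hg c h1, S.inv]; exact h2

theorem eq_one_of_two {x y : X} {g : G} (h : x ≠ y) (hx : ∀ c, S.I x c → g • c = c)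
    (hy : ∀ c, S.I y c → g • c = c) : g = 1 := by
  have h1 : ∀ z, ¬ S.ln x y z → g • z = z := fun z hz => by
    by_contra hne
    have hxz : x ≠ z := fun e => hz fun c h _ => e ▸ h
    have hyz : y ≠ z := fun e => hz fun c _ h => e ▸ h
    have h2 : S.ln x z y := fun c h1 h2 =>
      (ln_eq hyz (ln_smul hy) (fun _ _ h => h) hne (ln_smul hx c h1 h2) h2).1
    exact hz fun c h3 h4 => (ln_eq hxz (fun _ h _ => h) h2 h h3 h4).2
  refine S.faithΩ g fun c => ?_
  by_contra hne
  have h2 := (S.lam_bounds (Ne.symm hne)).2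
  have h3 : {z | S.I z c} ⊆ {z | S.I z c ∧ S.I z (g • c)} ∪ {z | S.I z c ∧ S.ln x y z} :=
    fun z hz => by
      by_cases hl : S.ln x y z
      · exact Or.inr ⟨hz, hl⟩
      · exact Or.inl ⟨hz, by rw [← h1 z hl, S.inv]; exact hz⟩
  have h4 : {z | S.I z c ∧ S.ln x y z}.ncard ≤ 1 := (Set.ncard_le_one (Set.toFinite _)).2
    fun z hz z' hz' => by
      by_contra e
      exact hne (hx c (ln_eq h hz.2 hz'.2 e hz.1 hz'.1).1)
  have h5 := (Set.ncard_le_ncard h3).trans (Set.ncard_union_le _ _)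
  rw [S.kΩ] at h5
  omega

omit [Finite X] in
theorem fix_of {x z : X} {u : G} (hu : ∀ c, S.I x c → u • c = c) {c : Ω} (hc : ¬ S.I x c)
    (h1 : S.I z c) (h2 : S.I z (u • c)) : u • z = z := by
  by_contra hne
  have h3 : S.I (u⁻¹ • z) c := by rw [← S.inv u]; simpa using h2
  refine hc (ln_eq (x := x) (y := z) (fun e => hc (e ▸ h1)) (fun _ _ h => h)
    (ln_smul (g := u⁻¹) fun c hc => inv_smul_eq_iff.2 (hu c hc).symm) ?_ h1 h3).1
  exact fun e => hne (eq_inv_smul_iff.1 e)

theorem exists_fix {x : X} {u : G} (hu : ∀ c, S.I x c → u • c = c) : ∃ y, y ≠ x ∧ u • y = y := by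
  obtain ⟨c, hc⟩ : ∃ c, ¬ S.I x c := by
    by_contra h
    push Not at h
    have := S.kX x
    have := S.le
    rw [Set.eq_univ_of_forall (s := {c | S.I x c}) h, Set.ncard_univ] at *
    omega
  obtain ⟨z, hz⟩ : {z | S.I z c ∧ S.I z (u • c)}.Nonempty := by
    rw [← Set.ncard_pos]
    by_cases h : c = u • c
    · rw [← h]; have := S.two; simp only [and_self, S.kΩ]; omega
    · exact (S.lam_bounds h).1
  exact ⟨z, fun e => hc (e ▸ hz.1), fix_of hu hc hz.1 hz.2⟩

theorem fix_ln {x y y' : X} {u : G} (hu : ∀ c, S.I x c → u • c = c)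
    (he : ∀ c, ¬ S.I x c → u • c ≠ c) (h : x ≠ y) (h' : x ≠ y') (hl : S.ln x y y')
    (hy : u • y = y) : u • y' = y' := by
  classical
  have := Fintype.ofFinite X
  have := Fintype.ofFinite Ω
  obtain ⟨c₀, c₁, hc⟩ : ∃ c₀ c₁ : Ω, c₀ ≠ c₁ := by
    have := S.le
    exact (Finite.one_lt_card_iff_nontrivial.1 (by omega)).exists_pair_ne
  set l₁ := {x | S.I x c₀ ∧ S.I x c₁}.ncard
  set l₂ := {c | S.I x c ∧ S.I y c}.ncard with hl₂
  have hlk : l₂ + 2 ≤ S.k := (S.dual.lam_bounds h).2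
  have e1 : ∀ w, x ≠ w → (∑ c, if S.I w c then {z | S.I z c ∧ u • z = z}.ncard else 0) + l₁ * l₂ =
      (∑ c, if S.I x c ∧ S.I w c then {z | S.I z c ∧ u • z = z}.ncard else 0) + l₁ * S.k :=
    fun w hw => by
    rw [← S.kX w, hl₂, S.lam_const' h hw, ncard_eq_sum (fun c => S.I x c ∧ S.I w c), ncard_eq_sum (fun c => S.I w c), mul_sum,
      mul_sum, ← sum_add_distrib, ← sum_add_distrib]
    refine sum_congr rfl fun c _ => ?_
    by_cases h1 : S.I w c <;> by_cases h2 : S.I x c <;>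
      simp only [h1, h2, and_self, and_true, and_false, if_true, if_false, mul_one, mul_zero,
        add_zero, zero_add]
    rw [show l₁ = _ from S.lam_const hc (he c h2).symm]
    congr 1
    ext z
    exact and_congr_right fun h3 => ⟨fun h4 => by rw [← h4, S.inv]; exact h3, fix_of hu h2 h3⟩
  have e2 : ∀ w, (∑ c, if S.I w c then {z | S.I z c ∧ u • z = z}.ncard else 0) +
      (if u • w = w then l₂ else 0) =
      (if u • w = w then S.k else 0) + ∑ z, if u • z = z then l₂ else 0 := fun w => by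
    have : ∀ c, (if S.I w c then {z | S.I z c ∧ u • z = z}.ncard else 0) =
        ∑ z, if u • z = z then (if S.I w c ∧ S.I z c then 1 else 0) else 0 := fun c => by
      rw [ncard_eq_sum]
      by_cases h1 : S.I w c <;> simp only [h1, if_true, if_false, true_and, false_and]
      · exact sum_congr rfl fun z _ => by by_cases h2 : u • z = z <;> simp [h2]
      · simp
    simp only [this]
    rw [sum_comm, ← add_sum_erase _ _ (mem_univ w), ← add_sum_erase _ _ (mem_univ w)]
    simp only [sum_ite_irrel, sum_const_zero, and_self, ← ncard_eq_sum, S.kX]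
    rw [sum_congr rfl fun z hz => show _ = if u • z = z then l₂ else 0 by
      rw [hl₂, S.lam_const' h (ne_of_mem_erase hz).symm]]
    ring
  have e3 : ∀ c, S.I x c ∧ S.I y c ↔ S.I x c ∧ S.I y' c := fun c =>
    ⟨fun hc => ⟨hc.1, hl c hc.1 hc.2⟩, fun hc => ln_eq h (fun _ h _ => h) hl h' hc.1 hc.2⟩
  have e4 := e1 y h
  have e5 := e1 y' h'
  have e6 := e2 y
  have e7 := e2 y'
  by_contra hne
  simp only [e3] at e4
  simp only [hy, hne, if_true, if_false] at e6 e7
  omega

variable (S)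

/-- The group of central automorphisms with centre `x`. -/
def N (x : X) : Subgroup G where
  carrier := {g | g • x = x ∧ ∀ c, S.I x c → g • c = c}
  one_mem' := ⟨one_smul _ _, fun _ _ => one_smul _ _⟩
  mul_mem' ha hb := ⟨by rw [mul_smul, hb.1, ha.1], fun c hc => by
    rw [mul_smul, hb.2 c hc, ha.2 c hc]⟩
  inv_mem' ha := ⟨inv_smul_eq_iff.2 ha.1.symm, fun c hc => inv_smul_eq_iff.2 (ha.2 c hc).symm⟩

omit [Finite X] [Finite Ω] in
theorem conj_N (g : G) (x : X) (n : G) (h : n ∈ S.N x) : g * n * g⁻¹ ∈ S.N (g • x) :=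
  ⟨by simp [mul_smul, h.1], fun c hc => by
    rw [mul_smul, mul_smul, h.2 _ (by rw [← S.inv g]; simpa using hc), smul_inv_smul]⟩

theorem ito [Finite G] {x : X} (hN : S.N x ≠ ⊥) (hfix : ∀ c : Ω, ∃ g : G, g • x = x ∧ g • c ≠ c) :
    IsPSLAct G X := by
  by_cases he : ∀ u ∈ S.N x, u ≠ 1 → ∀ c, ¬ S.I x c → u • c ≠ c
  · obtain ⟨u, hu, hu1⟩ := (Subgroup.bot_or_exists_ne_one _).resolve_left hN
    obtain ⟨y, hy, huy⟩ := exists_fix hu.2
    let D : Fam G X := ⟨S.N, S.twoX, S.faithX, S.conj_N, fun _ _ h => h.1, x, y, u, hy, hu, hu1, huy⟩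
    refine GFam.exists_normal_PSL ⟨D, fun a b n h ha hb => eq_one_of_two h ha.2 hb.2,
      fun a y w u c hu hu1 hc huy huw => ?_⟩
    have he' : ∀ c, ¬ S.I a c → u • c ≠ c := fun c hc e => by
      obtain ⟨g, rfl⟩ := D.trans a x
      exact he _ (S.conj_N g a u hu) (by simpa using hu1) (g • c) (by rwa [S.inv])
        (by simp [mul_smul, e])
    by_cases hwy : y = w
    · rw [← hwy, hc.1, huy]
    have hz : S.ln y w (c • w) := ln_smul hc.2
    generalize c • w = z at hz
    by_cases hza : a = z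
    · rw [← hza]; exact hu.1
    by_cases ha : S.ln y w a
    · by_cases hay : a = y
      · exact fix_ln hu.2 he' (hay ▸ hwy) hza (hay ▸ hz) huw
      · refine fix_ln hu.2 he' hay hza (fun d h1 h2 => ?_) huy
        exact hz d h2 (ln_eq hwy ha (fun _ h _ => h) hay h1 h2).2
    · by_contra hne
      refine ha fun d h1 h2 => (ln_eq hza (ln_smul hu.2) (fun _ _ h => h) hne ?_ (hz d h1 h2)).1
      have := hz (u⁻¹ • d) (by rw [← S.inv u, huy]; simpa using h1)
        (by rw [← S.inv u, huw]; simpa using h2)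
      rw [← S.inv u] at this
      simpa using this
  push Not at he
  obtain ⟨u, hu, hu1, c, hc, huc⟩ := he
  have key : ∀ n ∈ S.N x, ∀ d, ¬ S.I x d → d ≠ c → n • c = c → n • d = d → n = 1 :=
    fun n hn d hd hne h1 h2 => eq_one_of_two (S := S.dual) hne
      (fun z hz => fix_of hn.2 hd hz (by rwa [h2])) fun z hz => fix_of hn.2 hc hz (by rwa [h1])
  let Γ := stabilizer G x
  let K : Subgroup Γ := (S.N x).subgroupOf Γ
  have : K.Normal := ⟨fun n hn g => by
    have := S.conj_N g x n hn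
    rwa [show g.1 • x = x from g.2] at this⟩
  have hF : IsFrobeniusComplement (stabilizer K c) := by
    refine ⟨fun e => hu1 ?_, fun e => ?_, fun g hg => eq_bot_iff.2 fun n hn => ?_⟩
    · have := e.le (show (⟨⟨u, hu.1⟩, hu⟩ : K) ∈ stabilizer K c from huc)
      exact congrArg (fun a : K => a.1.1) (Subgroup.mem_bot.1 this)
    · obtain ⟨g, hgx, hgc⟩ := hfix c
      refine hu1 (key u hu _ (by rwa [← hgx, S.inv]) hgc huc ?_)
      have h1 := S.conj_N g⁻¹ x u hu
      rw [inv_smul_eq_iff.2 hgx.symm] at h1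
      have h2 : (g⁻¹ * u * g⁻¹⁻¹) • c = c :=
        e.ge (Subgroup.mem_top (⟨⟨_, h1.1⟩, h1⟩ : K))
      rwa [inv_inv, mul_smul, mul_smul, inv_smul_eq_iff] at h2
    · have h2 : (g.1.1⁻¹ * n.1.1 * g.1.1) • c = c :=
        (Subgroup.mem_pointwise_smul_iff_inv_smul_mem.1 hn.2 :)
      rw [mul_smul, mul_smul, inv_smul_eq_iff] at h2
      exact Subtype.ext (Subtype.ext (key _ n.2 (g.1.1 • c)
        (by rwa [← show g.1.1 • x = x from g.1.2, S.inv]) hg hn.1 h2))
  have hc := Solv.Frob.isComplement'_fitting hF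
  let F := (fittingSubgroup K).map K.subtype
  have : Nontrivial F := (Subgroup.nontrivial_iff_ne_bot F).2 fun e => hF.2.1 (by
    rw [(Subgroup.map_eq_bot_iff_of_injective _ K.subtype_injective).1 e] at hc
    exact Subgroup.isComplement'_bot_left.1 hc)
  have : Group.IsNilpotent F := Group.nilpotent_of_mulEquiv
    (Subgroup.equivMapOfInjective _ K.subtype K.subtype_injective)
  let A := (Subgroup.center F).map F.subtype
  have hA : A.Normal := inferInstance
  have hAN : ∀ a ∈ A, a.1 ∈ S.N x := fun a ha =>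
    Subgroup.map_subtype_le (H := K) _ (Subgroup.map_subtype_le (H := F) _ ha)
  refine onan_abelian S.twoX S.faithX (x := x) (A.map Γ.subtype) ?_ ?_ ?_ ?_
  · rintro _ ⟨a, -, rfl⟩; exact a.2
  · rintro g hg _ ⟨a, ha, rfl⟩
    exact ⟨_, hA.conj_mem a ha ⟨g, hg⟩, rfl⟩
  · rintro _ ⟨_, ⟨a, ha, rfl⟩, rfl⟩ _ ⟨_, ⟨b, -, rfl⟩, rfl⟩
    exact congrArg (fun a : F => a.1.1) (Subgroup.mem_center_iff.1 ha b).symm
  · obtain ⟨a, ha, ha1⟩ := (Subgroup.bot_or_exists_ne_one _).resolve_left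
      (Group.IsNilpotent.center_ne_bot (G := F))
    exact ⟨a.1.1, ⟨_, ⟨a, ha, rfl⟩, rfl⟩, fun e => ha1 (Subtype.ext (Subtype.ext e)),
      exists_fix (hAN _ ⟨a, ha, rfl⟩).2⟩

end SD

theorem two_trans_of_design {G X Ω : Type*} [Group G] [MulAction G X] [MulAction G Ω] [Finite X]
    [Finite Ω] {I : X → Ω → Prop} (hI : ∀ (g : G) x c, I (g • x) (g • c) ↔ I x c)
    (h2 : ∀ x y x' y' : Ω, x ≠ y → x' ≠ y' → ∃ g : G, g • x = x' ∧ g • y = y')
    (hc : Nat.card X = Nat.card Ω) {k : ℕ} (kX : ∀ x, {c | I x c}.ncard = k)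
    (kΩ : ∀ c, {x | I x c}.ncard = k) (hk : 0 < k) (hk' : k < Nat.card Ω)
    (x y x' y' : X) (h : x ≠ y) (h' : x' ≠ y') : ∃ g : G, g • x = x' ∧ g • y = y' := by
  classical
  have := Fintype.ofFinite X
  have := Fintype.ofFinite Ω
  obtain ⟨c₀, c₁, hc₀⟩ : ∃ c₀ c₁ : Ω, c₀ ≠ c₁ :=
    (Finite.one_lt_card_iff_nontrivial.1 (by omega)).exists_pair_ne
  set l := {x | I x c₀ ∧ I x c₁}.ncard
  have hl : ∀ c c', c ≠ c' → {x | I x c ∧ I x c'}.ncard = l := fun c c' hne => by
    obtain ⟨g, rfl, rfl⟩ := h2 c₀ c₁ c c' hc₀ hne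
    exact (ncard_two hI g _ _).symm
  have hlk : (k : ℚ) - l ≠ 0 := by
    have := lam_eq kX (kΩ c₀) (hl c₀)
    rw [sub_ne_zero, Ne, Nat.cast_inj]
    rintro rfl
    obtain ⟨m, hm⟩ := Nat.exists_eq_add_of_lt hk'
    rw [hm, Nat.add_sub_cancel] at this
    nlinarith
  have hk0 : (k : ℚ) ≠ 0 := Nat.cast_ne_zero.2 hk.ne'
  let M : Matrix X Ω ℚ := Matrix.of fun x c => if I x c then 1 else 0
  have m1 : ∀ c c', ∑ z, M z c * M z c' = if c = c' then (k : ℚ) else l := fun c c' => by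
    have : ∑ z, M z c * M z c' = ({x | I x c ∧ I x c'}.ncard : ℚ) := by
      rw [ncard_eq_sum]; push_cast
      exact sum_congr rfl fun z _ => by by_cases h1 : I z c <;> simp [M, h1]
    rw [this]
    split_ifs with e
    · subst e; simp [kΩ]
    · rw [hl c c' e]
  have m2 : ∀ c, ∑ z, M z c = k := fun c => by
    rw [← kΩ c, ncard_eq_sum]; push_cast; rfl
  have hinj : Function.Injective M.mulVecLin := (injective_iff_map_eq_zero _).2 fun v hv => by
    have hv : ∀ z, ∑ c, M z c * v c = 0 := fun z => congrFun hv z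
    have h1 : ∑ c, v c = 0 := by
      have := sum_eq_zero (s := univ) fun z _ => hv z
      rw [sum_comm] at this
      simpa only [← sum_mul, m2, ← mul_sum, mul_eq_zero, hk0, false_or] using this
    funext c
    have := sum_eq_zero (s := univ) fun z _ => show M z c * ∑ c', M z c' * v c' = 0 by
      rw [hv, mul_zero]
    simp only [mul_sum, ← mul_assoc] at this
    rw [sum_comm] at this
    simp only [← sum_mul, m1] at this
    rw [sum_congr rfl (g := fun c' => l * v c' + if c = c' then (k - l) * v c' else 0)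
      fun c' _ => by split_ifs <;> ring, sum_add_distrib, ← mul_sum, h1] at this
    simpa [hlk] using this
  obtain ⟨R, hR⟩ := Matrix.mulVec_surjective_iff_exists_right_inverse.1
    ((LinearMap.injective_iff_surjective_of_finrank_eq_finrank (by
      simpa [Nat.card_eq_fintype_card] using hc.symm)).1 hinj)
  let A : Matrix X X ℚ := Matrix.of fun a b => if ∃ g : G, g • x = a ∧ g • y = b then 1 else 0
  have hA : ∀ (g : G) a b, A (g • a) (g • b) = A a b := fun g a b => by
    refine if_congr ⟨fun ⟨f, h1, h2⟩ => ⟨g⁻¹ * f, ?_⟩, fun ⟨f, h1, h2⟩ => ⟨g * f, ?_⟩⟩ rfl rfl <;>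
      simp [mul_smul, h1, h2]
  let C := M.transpose * A * M
  have hC : ∀ (g : G) c c', C (g • c) (g • c') = C c c' := fun g c c' => by
    simp only [C, Matrix.mul_apply, Matrix.transpose_apply]
    rw [← Equiv.sum_comp (MulAction.toPerm g)]
    refine sum_congr rfl fun b _ => ?_
    rw [← Equiv.sum_comp (MulAction.toPerm g)]
    simp only [toPerm_apply, hA, M, Matrix.of_apply, hI]
  obtain ⟨a, b, hab⟩ : ∃ a b : ℚ, ∀ c c', C c c' =
      a * (if c = c' then (k : ℚ) else l) + b * (k * k) := by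
    refine ⟨(C c₀ c₀ - C c₀ c₁) / (k - l), (C c₀ c₁ - (C c₀ c₀ - C c₀ c₁) / (k - l) * l) / (k * k),
      fun c c' => ?_⟩
    split_ifs with e
    · subst e
      have : Nontrivial Ω := ⟨c₀, c₁, hc₀⟩
      obtain ⟨d, hd⟩ := exists_ne c
      obtain ⟨g, rfl, -⟩ := h2 c₀ c₁ c d hc₀ hd.symm
      rw [hC]; field_simp; ring
    · obtain ⟨g, rfl, rfl⟩ := h2 c₀ c₁ c c' hc₀ e
      rw [hC]; field_simp; ring
  let B : Matrix X X ℚ := a • (1 : Matrix X X ℚ) + b • Matrix.of fun _ _ => 1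
  have e1 : M.transpose * B * M = C := by
    ext c c'
    rw [hab]
    simp only [B, Matrix.mul_add, Matrix.mul_smul, Matrix.mul_one,
      Matrix.add_apply, Matrix.smul_apply, Matrix.mul_apply, Matrix.transpose_apply,
      Matrix.of_apply, mul_one, m2, smul_eq_mul, add_mul, mul_assoc, sum_add_distrib]
    simp only [← mul_sum, m1, m2]
  have e2 : ∀ D : Matrix X X ℚ, R.transpose * (M.transpose * D * M) * R = D := fun D => by
    have hR : M * R = 1 := hR
    simp only [← Matrix.mul_assoc, ← Matrix.transpose_mul, hR]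
    simp [Matrix.mul_assoc, hR]
  have e3 : B = A := by rw [← e2 B, e1, e2]
  have e4 : A x' y' = A x y := by simp [← e3, B, h, h']
  by_contra hne
  simp only [A, Matrix.of_apply, hne, if_false] at e4
  rw [if_pos ⟨1, one_smul _ _, one_smul _ _⟩] at e4
  exact zero_ne_one e4

theorem ito {G Ω : Type*} [Group G] [Finite G] [MulAction G Ω] [Finite Ω]
    (hf : ∀ g : G, (∀ x : Ω, g • x = x) → g = 1)
    (h2 : ∀ x y x' y' : Ω, x ≠ y → x' ≠ y' → ∃ g : G, g • x = x' ∧ g • y = y')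
    (H : Subgroup G) (hidx : H.index = Nat.card Ω) (hnt : ¬ IsPretransitive H Ω)
    (hfix : ∀ a : Ω, ∃ h : H, h • a ≠ a)
    (hunf : ∃ a : Ω, ∃ h : H, h ≠ 1 ∧ ∀ b ∈ orbit H a, h • b = b) : IsPSLAct G Ω := by
  classical
  obtain ⟨a, h, h1, hh⟩ := hunf
  let I : G ⧸ H → Ω → Prop := fun x c => ∃ g : G, QuotientGroup.mk g = x ∧ g⁻¹ • c ∈ orbit H a
  have hI : ∀ (g : G) c, I (QuotientGroup.mk g) c ↔ g⁻¹ • c ∈ orbit H a := fun g c => by
    refine ⟨fun ⟨f, e, hc⟩ => ?_, fun hc => ⟨g, rfl, hc⟩⟩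
    have := mapsTo_smul_orbit (⟨_, QuotientGroup.eq.1 e.symm⟩ : H) a hc
    simpa [Subgroup.smul_def, mul_smul] using this
  have inv : ∀ (g : G) x c, I (g • x) (g • c) ↔ I x c := fun g x c => by
    induction x using QuotientGroup.induction_on with | H f =>
    rw [MulAction.Quotient.smul_mk, hI, hI]; simp [mul_smul]
  have kX : ∀ x, {c | I x c}.ncard = (orbit H a).ncard := fun x => by
    induction x using QuotientGroup.induction_on with | H f =>
    exact Set.ncard_congr (fun z _ => f⁻¹ • z) (fun z hz => (hI f z).1 hz)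
      (fun a b _ _ e => MulAction.injective _ e) fun z hz =>
        ⟨f • z, (hI f _).2 (by simpa using hz), by simp⟩
  obtain ⟨b, hb⟩ : ∃ b, b ∉ orbit H a := by
    by_contra hc
    push Not at hc
    exact hnt ((isPretransitive_iff_orbit_eq_univ a).2 (Set.eq_univ_of_forall hc))
  have hk2 : 2 ≤ (orbit H a).ncard := by
    obtain ⟨g, hg⟩ := hfix a
    exact (Set.one_lt_ncard (Set.toFinite _)).2 ⟨_, mem_orbit a g, _, mem_orbit_self a, hg⟩
  have hkn : (orbit H a).ncard + 2 ≤ Nat.card Ω := by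
    obtain ⟨g, hg⟩ := hfix b
    have : 1 < (orbit H a)ᶜ.ncard := (Set.one_lt_ncard (Set.toFinite _)).2
      ⟨_, fun e => hb (by simpa using mapsTo_smul_orbit g⁻¹ a e), _, hb, hg⟩
    have := Set.ncard_add_ncard_compl (orbit H a)
    omega
  have kΩ : ∀ c, {x | I x c}.ncard = (orbit H a).ncard := fun c => by
    have := Fintype.ofFinite (G ⧸ H)
    have := Fintype.ofFinite Ω
    have e1 : ∀ c', {x | I x c'}.ncard = {x | I x c}.ncard := fun c' => by
      by_cases e : c' = c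
      · rw [e]
      obtain ⟨g, rfl, -⟩ := h2 c' c c c' e (Ne.symm e)
      simpa using ncard_two inv g c' c'
    have e2 : ∑ c', {x | I x c'}.ncard = ∑ x, {c | I x c}.ncard := by
      simp only [ncard_eq_sum]; exact sum_comm
    simp only [e1, kX, sum_const, card_univ, smul_eq_mul, ← Nat.card_eq_fintype_card] at e2
    rw [← Subgroup.index, hidx] at e2
    exact Nat.eq_of_mul_eq_mul_left (by omega) e2
  have twoX := two_trans_of_design inv h2 hidx kX kΩ (by omega) (by omega)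
  have faithX : ∀ g : G, (∀ x : G ⧸ H, g • x = x) → g = 1 := fun g hg => hf g fun c => by
    by_contra hne
    have h3 := lam_eq kX (kΩ c) (l := (orbit H a).ncard) fun d hd => by
      obtain ⟨f, e1, rfl⟩ := h2 c (g • c) c d (Ne.symm hne) hd
      rw [← kΩ c]
      conv_lhs => rw [← e1, ← ncard_two inv, e1]
      congr 1
      ext x
      exact and_iff_left_of_imp fun hx => by rw [← hg x, inv]; exact hx
    obtain ⟨m, hm⟩ := Nat.exists_eq_add_of_le hkn
    rw [hm, show (orbit H a).ncard + 2 + m - 1 = (orbit H a).ncard + 1 + m by omega] at h3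
    nlinarith
  let S : SD G (G ⧸ H) Ω := ⟨I, _, inv, twoX, h2, faithX, hf, hidx, kX, kΩ, hk2, hkn⟩
  have hx : ∀ g : H, g.1 • (QuotientGroup.mk 1 : G ⧸ H) = QuotientGroup.mk 1 := fun g => by
    rw [MulAction.Quotient.smul_mk, QuotientGroup.eq]; simp
  obtain ⟨L, F, _, _, n, r1, r2, r3, r4, r5⟩ := S.ito (x := QuotientGroup.mk 1)
    (fun e => h1 (Subtype.ext (Subgroup.mem_bot.1 (e.le (show h.1 ∈ S.N _ from
      ⟨hx h, fun c hc => hh c (by simpa using (hI 1 c).1 hc)⟩)))))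
    fun c => by obtain ⟨g, hg⟩ := hfix c; exact ⟨g, hx g, hg⟩
  exact ⟨L, F, inferInstance, inferInstance, n, r1, r2, r3, r4, hidx ▸ r5⟩

theorem IsPSLAct.succ {G Ω : Type*} [Group G] (h : IsPSLAct G Ω) :
    ∃ (m : ℕ) (F : Type) (_ : Field F) (_ : Fintype F), 2 ≤ m ∧
      Nat.card Ω = (Fintype.card F ^ (m + 1) - 1) / (Fintype.card F - 1) ∧
      ∃ N : Subgroup G, N.Normal ∧
        Nonempty (N ≃* Matrix.ProjectiveSpecialLinearGroup (Fin (m + 1)) F) ∧
        Subgroup.centralizer (N : Set G) = ⊥ := by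
  obtain ⟨L, F, _, _, n, r1, r2, r3, r4, r5⟩ := h
  obtain ⟨m, rfl⟩ := Nat.exists_eq_succ_of_ne_zero (show n ≠ 0 by omega)
  refine ⟨m, F, inferInstance, inferInstance, by omega, ?_, L, r2, r4, r3⟩
  rw [← r5, Nat.mul_div_cancel _ (Nat.sub_pos_of_lt Fintype.one_lt_card)]

end Cfsg.Agent.Proj
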